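import Mathlib
import Cfsg.Prelude.Def_GeometricClasses
import Cfsg.Prelude.Def_ClassicalGeometry
import Cfsg.Prelude.Def_Classical
import Cfsg.Agent.Lib.Helper23.OHyp.Defs

/-!
# S5978 (team project OFM): package interface

`PΩ⁻_{2d}(q)`, `q` odd, `d ≥ 4`, and the subgroup `N(K)` of type `O_d(q²)` (`K` a field
subalgebra of degree 2, self-adjoint for the polar form): every `x ∈ Ω` with `x ^ r` scalar,
`x` not scalar, is `Ω`-conjugate into `N(K)` iff `r = 2` (for `r` dividing the index).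

The minus twin of helper95's OFX (S5977).  Almost every package is GENERIC in the index type `ι`
and in the quadratic form `Q : (ι → F) → F` (a function with
`Cfsg.Geo.IsNondegenerateQuadraticForm Q`, as in helper23's OHYP packages), so the same packages
serve the plus form too.  `B = QuadraticMap.polar Q`, `q = Fintype.card F` (odd), `a` a non-square
of `F`, `Rf Q v = Cfsg.reflectionMatrix Q v`, `ordI q r`, `cc q r` as in
`Cfsg.Agent.Lib.Helper23.OHyp`.
-/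

set_option autoImplicit false

namespace Cfsg.Agent.Lib.Helper74.OFM

open Matrix Cfsg.Agent.Lib.Helper23.OHyp

universe u

section defs

variable {F : Type u} [Field F] {ι : Type} [Fintype ι] [DecidableEq ι]

/-- `α` is self-adjoint for the polar form of `Q` and `α * α = a`. -/
def IsAlpha (Q : (ι → F) → F) (a : F) (α : Matrix ι ι F) : Prop :=
  α * α = a • (1 : Matrix ι ι F) ∧
    ∀ u v : ι → F, QuadraticMap.polar Q (α *ᵥ u) v = QuadraticMap.polar Q u (α *ᵥ v)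

/-- `x` commutes or anticommutes with `α`. -/
def PM (x α : Matrix ι ι F) : Prop :=
  x * α = α * x ∨ x * α = -(α * x)

/-- The description of `K` as `F + F α`. -/
def KIs (K : Subalgebra F (Matrix ι ι F)) (α : Matrix ι ι F) : Prop :=
  ∀ k : Matrix ι ι F, k ∈ K ↔ ∃ x y : F, k = x • (1 : Matrix ι ι F) + y • α

/-- The reflection matrix of `Q`. -/
abbrev Rf (Q : (ι → F) → F) (v : ι → F) : Matrix ι ι F :=
  Cfsg.reflectionMatrix Q v

/-- The conclusion of the two [TWIST] packages: an `α'` with `x α' = ± α' x` which keeps this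
property after conjugation by `R_u`, `R_u' R_u`, `R_u'`, where `Q u * Q u'` is a non-square. -/
def Twisted (Q : (ι → F) → F) (a : F) (x : Matrix ι ι F) : Prop :=
  ∃ (α' : Matrix ι ι F) (u u' : ι → F), IsAlpha Q a α' ∧
    Q u ≠ 0 ∧ Q u' ≠ 0 ∧ ¬ IsSquare (Q u * Q u') ∧
    PM x α' ∧ PM x (Rf Q u * α' * Rf Q u) ∧
    PM x (Rf Q u' * Rf Q u * α' * (Rf Q u * Rf Q u')) ∧ PM x (Rf Q u' * α' * Rf Q u')

/-- An element of `Ω(Q)` with `x ^ r = 1`, not scalar, with `rank (x - 1)` not divisible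
by `4`. -/
def Derang (Q : (ι → F) → F) (r : ℕ) : Prop :=
  ∃ x : GL ι F, x ∈ Cfsg.Geo.omegaGL Q ∧
    (x : Matrix ι ι F) ^ r = 1 ∧
    (∀ z : F, (x : Matrix ι ι F) ≠ z • (1 : Matrix ι ι F)) ∧
    ¬ 4 ∣ ((x : Matrix ι ι F) - 1).rank

end defs

/-- The index type of the minus form in dimension `2 n + 2`. -/
abbrev MI (n : ℕ) : Type := (Fin n ⊕ Fin n) ⊕ Fin 2

/-! ## Structure of `K` and of its normalizer (generic) -/

/-- [STRUCT] `K = F + F α` with `α` self-adjoint, `α² = a` a non-square.  (`Q` is any function.) -/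
def PkgStruct : Prop :=
  ∀ {F : Type u} [Field F] [Fintype F], Odd (Fintype.card F) →
    ∀ {ι : Type} [Fintype ι] [DecidableEq ι] (Q : (ι → F) → F)
    (K : Subalgebra F (Matrix ι ι F)), Cfsg.Geo.IsFieldSubalgebra 2 K →
    Cfsg.Geo.IsSelfAdjointFor (QuadraticMap.polar Q) K →
    ∃ (a : F) (α : Matrix ι ι F), ¬ IsSquare a ∧ IsAlpha Q a α ∧ KIs K α

/-- [NORM] `g` normalizes `K` iff `g α = ± α g`. -/
def PkgNorm : Prop :=
  ∀ {F : Type u} [Field F] [Fintype F], Odd (Fintype.card F) →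
    ∀ {ι : Type} [Fintype ι] [DecidableEq ι]
    (K : Subalgebra F (Matrix ι ι F)) (a : F) (α : Matrix ι ι F),
    ¬ IsSquare a → α * α = a • (1 : Matrix ι ι F) → KIs K α →
    ∀ g : GL ι F, (g ∈ Cfsg.Geo.subalgebraNormalizer K ↔ PM (g : Matrix ι ι F) α)

/-- [ZPM] an isometry with scalar square has square `± 1`. -/
def PkgZPM : Prop :=
  ∀ {F : Type u} [Field F] {ι : Type} [Fintype ι] [DecidableEq ι] (Q : (ι → F) → F),
    Cfsg.Geo.IsNondegenerateQuadraticForm Q → (2 : F) ≠ 0 → Nonempty ι →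
    ∀ (x : GL ι F), x ∈ Cfsg.isometryGroup F Q → ∀ z : F,
    (x : Matrix ι ι F) * (x : Matrix ι ι F) = z • (1 : Matrix ι ι F) → z = 1 ∨ z = -1

/-! ## Conjugacy of the structures (generic, Witt index `≥ d - 1`) -/

/-- [PEEL] a `K`-orthogonal frame: `B (w j) (w k) = 0 = B (α w j) (w k)` for `j ≠ k`, all
frame vectors non-isotropic over `K`, all but the last normalised to
`(B (w j) (w j), B (α w j) (w j)) = (0, 1)`.  Hypothesis: `dim = 2 d` and a totally singular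
subspace of dimension `≥ d - 1`. -/
def PkgPeel : Prop :=
  ∀ {F : Type u} [Field F] [Fintype F], Odd (Fintype.card F) →
    ∀ {ι : Type} [Fintype ι] [DecidableEq ι] (Q : (ι → F) → F),
    Cfsg.Geo.IsNondegenerateQuadraticForm Q → ∀ (d : ℕ), Fintype.card ι = 2 * d →
    ∀ (U₀ : Submodule F (ι → F)), (∀ u ∈ U₀, Q u = 0) → d ≤ Module.finrank F U₀ + 1 →
    ∀ (a : F) (α : Matrix ι ι F), ¬ IsSquare a → IsAlpha Q a α →
    ∃ w : Fin d → (ι → F),
      (∀ j k, j ≠ k → QuadraticMap.polar Q (w j) (w k) = 0 ∧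
        QuadraticMap.polar Q (α *ᵥ w j) (w k) = 0) ∧
      (∀ j, QuadraticMap.polar Q (w j) (w j) ≠ 0 ∨ QuadraticMap.polar Q (α *ᵥ w j) (w j) ≠ 0) ∧
      (∀ j : Fin d, (j : ℕ) + 1 < d →
        QuadraticMap.polar Q (w j) (w j) = 0 ∧ QuadraticMap.polar Q (α *ᵥ w j) (w j) = 1)

/-- Any two structures `α`, `α'` (same `a`) are conjugate under the isometry group. -/
def Conj : Prop :=
  ∀ {F : Type u} [Field F] [Fintype F], Odd (Fintype.card F) →
    ∀ {ι : Type} [Fintype ι] [DecidableEq ι] (Q : (ι → F) → F),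
    Cfsg.Geo.IsNondegenerateQuadraticForm Q → ∀ (d : ℕ), Fintype.card ι = 2 * d →
    ∀ (U₀ : Submodule F (ι → F)), (∀ u ∈ U₀, Q u = 0) → d ≤ Module.finrank F U₀ + 1 →
    ∀ (a : F) (α α' : Matrix ι ι F), ¬ IsSquare a → IsAlpha Q a α → IsAlpha Q a α' →
    ∃ g : GL ι F, g ∈ Cfsg.isometryGroup F Q ∧
      α' * (g : Matrix ι ι F) = (g : Matrix ι ι F) * α

/-- [CONJ] -/
def PkgConj : Prop := PkgPeel.{u} → Conj.{u}

/-! ## `r = 2` (generic) -/

/-- [TWISTP] involutions of `Ω`. -/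
def PkgTwistP : Prop :=
  ∀ {F : Type u} [Field F] [Fintype F], Odd (Fintype.card F) →
    ∀ {ι : Type} [Fintype ι] [DecidableEq ι] (Q : (ι → F) → F),
    Cfsg.Geo.IsNondegenerateQuadraticForm Q → Even (Fintype.card ι) → 2 ≤ Fintype.card ι →
    ∀ (a : F), ¬ IsSquare a → ∀ x : GL ι F, x ∈ Cfsg.Geo.omegaGL Q →
      (x : Matrix ι ι F) * (x : Matrix ι ι F) = 1 → Twisted Q a (x : Matrix ι ι F)

/-- [TWISTM] isometries with `x² = -1`. -/
def PkgTwistM : Prop :=
  ∀ {F : Type u} [Field F] [Fintype F], Odd (Fintype.card F) →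
    ∀ {ι : Type} [Fintype ι] [DecidableEq ι] (Q : (ι → F) → F),
    Cfsg.Geo.IsNondegenerateQuadraticForm Q → 1 ≤ Fintype.card ι →
    ∀ (a : F), ¬ IsSquare a → ∀ x : GL ι F, x ∈ Cfsg.isometryGroup F Q →
      (x : Matrix ι ι F) * (x : Matrix ι ι F) = -1 → Twisted Q a (x : Matrix ι ι F)

/-- [SPIN] `1, R_u, R_u' R_u, R_u'` represent the cosets of `Ω` in the isometry group. -/
def PkgSpin : Prop :=
  ∀ {F : Type u} [Field F] [Fintype F], Odd (Fintype.card F) →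
    ∀ {ι : Type} [Fintype ι] [DecidableEq ι] (Q : (ι → F) → F),
    Cfsg.Geo.IsNondegenerateQuadraticForm Q → ∀ (h : GL ι F),
    h ∈ Cfsg.isometryGroup F Q → ∀ u u' : ι → F, Q u ≠ 0 → Q u' ≠ 0 →
    ¬ IsSquare (Q u * Q u') →
    ∃ (g : GL ι F) (M M' : Matrix ι ι F),
      g ∈ Cfsg.Geo.omegaGL Q ∧ M * M' = 1 ∧
      (g : Matrix ι ι F) = M * (h : Matrix ι ι F) ∧
      ((M = 1 ∧ M' = 1) ∨ (M = Rf Q u ∧ M' = Rf Q u) ∨
        (M = Rf Q u' * Rf Q u ∧ M' = Rf Q u * Rf Q u') ∨ (M = Rf Q u' ∧ M' = Rf Q u'))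

/-! ## `r` odd -/

/-- [MOD4] (generic) an isometry of odd order with a conjugate normalizing `α` has
`4 ∣ rank (x - 1)`. -/
def PkgMod4 : Prop :=
  ∀ {F : Type u} [Field F] [Fintype F], Odd (Fintype.card F) →
    ∀ {ι : Type} [Fintype ι] [DecidableEq ι] (Q : (ι → F) → F),
    Cfsg.Geo.IsNondegenerateQuadraticForm Q → ∀ (a : F) (α : Matrix ι ι F),
    ¬ IsSquare a → IsAlpha Q a α →
    ∀ x g : GL ι F, x ∈ Cfsg.isometryGroup F Q → g ∈ Cfsg.isometryGroup F Q → ∀ r : ℕ, Odd r →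
      (x : Matrix ι ι F) ^ r = 1 →
      PM ((g⁻¹ * x * g : GL ι F) : Matrix ι ι F) α →
      4 ∣ ((x : Matrix ι ι F) - 1).rank

/-- [DERP] (minus form) `r = p`: an element of order `p` of `Ω⁻` with `rank (x - 1) = 2`
(a Siegel element on two hyperbolic pairs, or the image of a plus-form one). -/
def PkgDerP : Prop :=
  ∀ {F : Type u} [Field F] [Fintype F] {p : ℕ} [Fact p.Prime] [CharP F p],
    Odd (Fintype.card F) → ∀ (n : ℕ), 2 ≤ n → ∀ (a b : F),
    (∀ x y : F, x ^ 2 + a * x * y + b * y ^ 2 = 0 → x = 0 ∧ y = 0) →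
    Derang (Cfsg.quadFormMinus n F a b) p

/-- [DERC] (generic) `r` odd, `r ∤ q`, `r` divides `|Ω(Q)|`, `c = cc q r ≡ 2 (mod 4)`
(i.e. `i` odd or `i ≡ 2 (mod 4)`): an element of `Ω(Q)` of order `r` with `rank (x - 1) = c`. -/
def PkgDerC : Prop :=
  ∀ {F : Type u} [Field F] [Fintype F], Odd (Fintype.card F) →
    ∀ {ι : Type} [Fintype ι] [DecidableEq ι] (Q : (ι → F) → F),
    Cfsg.Geo.IsNondegenerateQuadraticForm Q → ∀ r : ℕ, r.Prime → r ≠ 2 →
    ¬ r ∣ Fintype.card F → r ∣ Nat.card (Cfsg.Geo.omegaGL Q) →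
    cc (Fintype.card F) r % 4 = 2 → Derang Q r

/-- [SYL4] (generic) `4 ∣ i`: every `r`-subgroup of the isometry group centralizes a
structure `α'`. -/
def PkgSyl4 : Prop :=
  ∀ {F : Type u} [Field F] [Fintype F], Odd (Fintype.card F) →
    ∀ {ι : Type} [Fintype ι] [DecidableEq ι] (Q : (ι → F) → F),
    Cfsg.Geo.IsNondegenerateQuadraticForm Q → Even (Fintype.card ι) →
    ∀ (a : F), ¬ IsSquare a → ∀ r : ℕ, r.Prime → r ≠ 2 → ¬ r ∣ Fintype.card F →
    4 ∣ ordI (Fintype.card F) r →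
    ∀ P : Subgroup (GL ι F), P ≤ Cfsg.isometryGroup F Q → IsPGroup r P →
    ∃ α' : Matrix ι ι F, IsAlpha Q a α' ∧
      ∀ g ∈ P, (g : Matrix ι ι F) * α' = α' * (g : Matrix ι ι F)

/-- `4 ∣ i`: `r` does not divide the index of `N(K) ∩ Ω` in `Ω`, provided all structures are
conjugate to `α` under the isometry group. -/
def NoIdx : Prop :=
  ∀ {F : Type u} [Field F] [Fintype F], Odd (Fintype.card F) →
    ∀ {ι : Type} [Fintype ι] [DecidableEq ι] (Q : (ι → F) → F),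
    Cfsg.Geo.IsNondegenerateQuadraticForm Q → Even (Fintype.card ι) →
    ∀ (K : Subalgebra F (Matrix ι ι F)) (a : F) (α : Matrix ι ι F),
    ¬ IsSquare a → IsAlpha Q a α → KIs K α →
    (∀ α' : Matrix ι ι F, IsAlpha Q a α' → ∃ g : GL ι F, g ∈ Cfsg.isometryGroup F Q ∧
      α' * (g : Matrix ι ι F) = (g : Matrix ι ι F) * α) →
    ∀ r : ℕ, r.Prime → r ≠ 2 → ¬ r ∣ Fintype.card F → 4 ∣ ordI (Fintype.card F) r →
    ¬ r ∣ (Cfsg.Geo.subalgebraNormalizer K).relIndex (Cfsg.Geo.omegaGL Q)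

/-- [NOIDX] -/
def PkgNoIdx : Prop := PkgNorm.{u} → PkgSyl4.{u} → NoIdx.{u}

/-! ## The minus form -/

/-- [MINUSTS] the minus form has a totally singular subspace of dimension `n`. -/
def PkgMinusTS : Prop :=
  ∀ {F : Type u} [Field F] (n : ℕ) (a b : F),
    ∃ U₀ : Submodule F (MI n → F), (∀ u ∈ U₀, Cfsg.quadFormMinus n F a b u = 0) ∧
      n ≤ Module.finrank F U₀

end Cfsg.Agent.Lib.Helper74.OFM
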