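import Mathlib
import Cfsg.Agent.Lib.Helper74.OFM.Defs
import Cfsg.Agent.Lib.Helper54.OHyp.EBlkEven

/-!
# S5978 (team project OFM): assembly of the packages
-/

set_option autoImplicit false

namespace Cfsg.Agent.Lib.Helper74.OFM

open Matrix Cfsg.Agent.Lib.Helper23.OHyp

universe u

section Asm

variable {F : Type u} [Field F] {ι : Type} [Fintype ι] [DecidableEq ι]

theorem gl_inv_mul (g : GL ι F) :
    ((g⁻¹ : GL ι F) : Matrix ι ι F) * (g : Matrix ι ι F) = 1 := by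
  rw [← Units.val_mul, inv_mul_cancel, Units.val_one]

theorem gl_mul_inv (g : GL ι F) :
    (g : Matrix ι ι F) * ((g⁻¹ : GL ι F) : Matrix ι ι F) = 1 := by
  rw [← Units.val_mul, mul_inv_cancel, Units.val_one]

theorem omega_le {Q : (ι → F) → F} {x : GL ι F} (hx : x ∈ Cfsg.Geo.omegaGL Q) :
    x ∈ Cfsg.isometryGroup F Q := by
  unfold Cfsg.Geo.omegaGL at hx
  obtain ⟨y, _, rfl⟩ := Subgroup.mem_map.mp hx
  exact y.2

/-- Conjugating by `g = M * h`. -/
theorem conj_eq (g h : GL ι F) (M M' : Matrix ι ι F) (hM : M * M' = 1)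
    (hg : (g : Matrix ι ι F) = M * (h : Matrix ι ι F))
    (α α' : Matrix ι ι F)
    (hα' : (h : Matrix ι ι F) * α * ((h⁻¹ : GL ι F) : Matrix ι ι F) = α') :
    (g : Matrix ι ι F) * α * ((g⁻¹ : GL ι F) : Matrix ι ι F) = M * α' * M' := by
  have hinv : ((g⁻¹ : GL ι F) : Matrix ι ι F) =
      ((h⁻¹ : GL ι F) : Matrix ι ι F) * M' := by
    have h1 : (g : Matrix ι ι F) * (((h⁻¹ : GL ι F) : Matrix ι ι F) * M') = 1 := by
      rw [hg, Matrix.mul_assoc, ← Matrix.mul_assoc (h : Matrix ι ι F), gl_mul_inv,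
        Matrix.one_mul, hM]
    exact Units.inv_eq_of_mul_eq_one_right h1
  rw [hinv, hg, ← hα']
  simp only [Matrix.mul_assoc]

/-- Moving a conjugation from `x` to `α`. -/
theorem pm_conj (x g : GL ι F) (α : Matrix ι ι F) :
    PM ((g⁻¹ * x * g : GL ι F) : Matrix ι ι F) α ↔
      PM (x : Matrix ι ι F) ((g : Matrix ι ι F) * α * ((g⁻¹ : GL ι F) : Matrix ι ι F)) := by
  obtain ⟨G, hG⟩ : ∃ G : Matrix ι ι F, G = (g : Matrix ι ι F) := ⟨_, rfl⟩
  obtain ⟨G', hG'⟩ : ∃ G' : Matrix ι ι F, G' = ((g⁻¹ : GL ι F) : Matrix ι ι F) := ⟨_, rfl⟩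
  obtain ⟨X, hX⟩ : ∃ X : Matrix ι ι F, X = (x : Matrix ι ι F) := ⟨_, rfl⟩
  have h1 : G' * G = 1 := by rw [hG, hG']; exact gl_inv_mul g
  have h2 : G * G' = 1 := by rw [hG, hG']; exact gl_mul_inv g
  have hc : ((g⁻¹ * x * g : GL ι F) : Matrix ι ι F) = G' * X * G := by
    rw [Units.val_mul, Units.val_mul, hG, hG', hX]
  rw [hc, ← hG, ← hG', ← hX]
  unfold PM
  have e1 : G' * X * G * α = α * (G' * X * G) ↔ X * (G * α * G') = G * α * G' * X := by
    constructor
    · intro h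
      calc X * (G * α * G') = G * (G' * X * G * α) * G' := by
            simp only [Matrix.mul_assoc]
            rw [← Matrix.mul_assoc G G', h2, Matrix.one_mul]
        _ = G * (α * (G' * X * G)) * G' := by rw [h]
        _ = G * α * G' * X := by
            simp only [Matrix.mul_assoc]
            rw [h2, Matrix.mul_one]
    · intro h
      calc G' * X * G * α = G' * (X * (G * α * G')) * G := by
            simp only [Matrix.mul_assoc]
            rw [h1, Matrix.mul_one]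
        _ = G' * (G * α * G' * X) * G := by rw [h]
        _ = α * (G' * X * G) := by
            simp only [Matrix.mul_assoc]
            rw [← Matrix.mul_assoc G' G, h1, Matrix.one_mul]
  have e2 : G' * X * G * α = -(α * (G' * X * G)) ↔ X * (G * α * G') = -(G * α * G' * X) := by
    constructor
    · intro h
      calc X * (G * α * G') = G * (G' * X * G * α) * G' := by
            simp only [Matrix.mul_assoc]
            rw [← Matrix.mul_assoc G G', h2, Matrix.one_mul]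
        _ = G * (-(α * (G' * X * G))) * G' := by rw [h]
        _ = -(G * α * G' * X) := by
            simp only [Matrix.mul_assoc, Matrix.mul_neg, Matrix.neg_mul]
            rw [h2, Matrix.mul_one]
    · intro h
      calc G' * X * G * α = G' * (X * (G * α * G')) * G := by
            simp only [Matrix.mul_assoc]
            rw [h1, Matrix.mul_one]
        _ = G' * (-(G * α * G' * X)) * G := by rw [h]
        _ = -(α * (G' * X * G)) := by
            simp only [Matrix.mul_assoc, Matrix.mul_neg, Matrix.neg_mul]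
            rw [← Matrix.mul_assoc G' G, h1, Matrix.one_mul]
  rw [e1, e2]

end Asm

/-- `cc q r` is `2 mod 4` or `4 ∣ ordI q r`. -/
theorem four_dvd_ordI_of_cc {q r : ℕ} (h : ¬ cc q r % 4 = 2) : 4 ∣ ordI q r := by
  unfold cc at h
  split_ifs at h with he
  · obtain ⟨k, hk⟩ := he
    omega
  · rw [Nat.not_even_iff_odd] at he
    obtain ⟨k, hk⟩ := he
    omega

/-- The assembly: S5978 from the packages. -/
theorem s5978_of (hS : PkgStruct.{u}) (hN : PkgNorm.{u}) (hZ : PkgZPM.{u}) (hC : Conj.{u})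
    (hTP : PkgTwistP.{u}) (hTM : PkgTwistM.{u}) (hSpin : PkgSpin.{u}) (hM4 : PkgMod4.{u})
    (hDP : PkgDerP.{u}) (hDC : PkgDerC.{u}) (hNI : NoIdx.{u}) (hTS : PkgMinusTS.{u})
    {F : Type u} [Field F] [Fintype F] {p : ℕ} [Fact p.Prime] [CharP F p] {q : ℕ}
    (hq : Fintype.card F = q)
    (hodd : Odd q) (d : ℕ) (hd : 4 ≤ d) (a b : F)
    (hab : ∀ x y : F, x ^ 2 + a * x * y + b * y ^ 2 = 0 → x = 0 ∧ y = 0)
    (K : Subalgebra F (Matrix ((Fin (d - 1) ⊕ Fin (d - 1)) ⊕ Fin 2)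
      ((Fin (d - 1) ⊕ Fin (d - 1)) ⊕ Fin 2) F))
    (hK : Cfsg.Geo.IsFieldSubalgebra 2 K)
    (hKf : Cfsg.Geo.IsSelfAdjointFor
      (QuadraticMap.polar (Cfsg.quadFormMinus (d - 1) F a b)) K)
    (r : ℕ) [Fact r.Prime]
    (hΩ : r ∣ (Cfsg.Geo.subalgebraNormalizer K).relIndex
      (Cfsg.Geo.omegaGL (Cfsg.quadFormMinus (d - 1) F a b))) :
    (∀ x ∈ Cfsg.Geo.omegaGL (Cfsg.quadFormMinus (d - 1) F a b),
      (∃ z : F, ((x ^ r : GL ((Fin (d - 1) ⊕ Fin (d - 1)) ⊕ Fin 2) F) :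
        Matrix ((Fin (d - 1) ⊕ Fin (d - 1)) ⊕ Fin 2) ((Fin (d - 1) ⊕ Fin (d - 1)) ⊕ Fin 2) F) =
          z • (1 : Matrix ((Fin (d - 1) ⊕ Fin (d - 1)) ⊕ Fin 2)
            ((Fin (d - 1) ⊕ Fin (d - 1)) ⊕ Fin 2) F)) →
      (∀ z : F, (x : Matrix ((Fin (d - 1) ⊕ Fin (d - 1)) ⊕ Fin 2)
          ((Fin (d - 1) ⊕ Fin (d - 1)) ⊕ Fin 2) F) ≠
        z • (1 : Matrix ((Fin (d - 1) ⊕ Fin (d - 1)) ⊕ Fin 2)
          ((Fin (d - 1) ⊕ Fin (d - 1)) ⊕ Fin 2) F)) →
      ∃ g ∈ Cfsg.Geo.omegaGL (Cfsg.quadFormMinus (d - 1) F a b),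
        g⁻¹ * x * g ∈ Cfsg.Geo.subalgebraNormalizer K) ↔ r = 2 := by
  classical
  subst hq
  have hr : r.Prime := Fact.out
  have h2 : (2 : F) ≠ 0 := by
    apply Ring.two_ne_zero
    intro hc
    have := FiniteField.even_card_of_char_two hc
    rw [Nat.odd_iff] at hodd
    omega
  have hdisc : 4 * b - a ^ 2 ≠ 0 := by
    intro h0
    have h4 := (hab (-a) 2 (by linear_combination h0)).2
    exact h2 h4
  have hnd : Cfsg.Geo.IsNondegenerateQuadraticForm (Cfsg.quadFormMinus (d - 1) F a b) :=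
    Cfsg.Agent.Lib.Helper54.OHyp.quadFormMinus_nondeg h2 (d - 1) a b hdisc
  have hcard : Fintype.card (MI (d - 1)) = 2 * d := by
    simp only [Fintype.card_sum, Fintype.card_fin]
    omega
  have hne : Nonempty (MI (d - 1)) := ⟨Sum.inr 0⟩
  have heven : Even (Fintype.card (MI (d - 1))) := by rw [hcard]; exact even_two_mul d
  obtain ⟨U₀, hU₀, hU₀d⟩ := hTS (F := F) (d - 1) a b
  have hU₀d' : d ≤ Module.finrank F U₀ + 1 := by omega
  obtain ⟨a₀, α, ha, hα, hKα⟩ := hS hodd (Cfsg.quadFormMinus (d - 1) F a b) K hK hKf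
  have key : ∀ x g : GL (MI (d - 1)) F, (g⁻¹ * x * g ∈ Cfsg.Geo.subalgebraNormalizer K ↔
      PM (x : Matrix (MI (d - 1)) (MI (d - 1)) F) ((g : Matrix (MI (d - 1)) (MI (d - 1)) F) * α *
        ((g⁻¹ : GL (MI (d - 1)) F) : Matrix (MI (d - 1)) (MI (d - 1)) F))) := by
    intro x g
    rw [hN hodd K a₀ α ha hα.1 hKα]
    exact pm_conj x g α
  constructor
  · intro hall
    by_contra hr2
    have hrodd : Odd r := hr.odd_of_ne_two hr2
    have fin : Derang (Cfsg.quadFormMinus (d - 1) F a b) r → False := by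
      rintro ⟨x, hx, hxr, hns, hrank⟩
      obtain ⟨g, hg, hmem⟩ := hall x hx ⟨1, by rw [Units.val_pow_eq_pow_val, hxr, one_smul]⟩ hns
      have hpm := (hN hodd K a₀ α ha hα.1 hKα (g⁻¹ * x * g)).mp hmem
      exact hrank (hM4 hodd (Cfsg.quadFormMinus (d - 1) F a b) hnd a₀ α ha hα x g (omega_le hx)
        (omega_le hg) r hrodd hxr hpm)
    by_cases hrq : r ∣ Fintype.card F
    · obtain ⟨n, hn⟩ := FiniteField.card F p
      have hrp : r = p := by
        rw [hn.2] at hrq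
        exact (Nat.prime_dvd_prime_iff_eq hr hn.1).mp (hr.dvd_of_dvd_pow hrq)
      subst hrp
      exact fin (hDP (F := F) (p := r) hodd (d - 1) (by omega) a b hab)
    · by_cases hc : cc (Fintype.card F) r % 4 = 2
      · have hdvd : r ∣ Nat.card (Cfsg.Geo.omegaGL (Cfsg.quadFormMinus (d - 1) F a b)) :=
          dvd_trans hΩ (Subgroup.relIndex_dvd_card _ _)
        exact fin (hDC hodd (Cfsg.quadFormMinus (d - 1) F a b) hnd r hr hr2 hrq hdvd hc)
      · have h4 := four_dvd_ordI_of_cc hc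
        exact hNI hodd (Cfsg.quadFormMinus (d - 1) F a b) hnd heven K a₀ α ha hα hKα
          (fun α' hα' => hC hodd (Cfsg.quadFormMinus (d - 1) F a b) hnd d hcard U₀ hU₀ hU₀d'
            a₀ α α' ha hα hα') r hr hr2 hrq h4 hΩ
  · rintro rfl x hx ⟨z, hz⟩ _
    rw [Units.val_pow_eq_pow_val, pow_two] at hz
    have hxi := omega_le hx
    obtain ⟨α', u, u', hα', hu, hu', hns', pm1, pm2, pm3, pm4⟩ :
        Twisted (Cfsg.quadFormMinus (d - 1) F a b) a₀
          (x : Matrix (MI (d - 1)) (MI (d - 1)) F) := by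
      rcases hZ (Cfsg.quadFormMinus (d - 1) F a b) hnd h2 hne x hxi z hz with rfl | rfl
      · exact hTP hodd (Cfsg.quadFormMinus (d - 1) F a b) hnd heven (by rw [hcard]; omega) a₀ ha
          x hx (by rw [hz, one_smul])
      · exact hTM hodd (Cfsg.quadFormMinus (d - 1) F a b) hnd (by rw [hcard]; omega) a₀ ha
          x hxi (by rw [hz, neg_smul, one_smul])
    obtain ⟨h, hh, eh⟩ := hC hodd (Cfsg.quadFormMinus (d - 1) F a b) hnd d hcard U₀ hU₀ hU₀d'
      a₀ α α' ha hα hα'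
    have e3 : (h : Matrix (MI (d - 1)) (MI (d - 1)) F) * α *
        ((h⁻¹ : GL (MI (d - 1)) F) : Matrix (MI (d - 1)) (MI (d - 1)) F) = α' := by
      rw [← eh, Matrix.mul_assoc, gl_mul_inv, Matrix.mul_one]
    obtain ⟨g, M, M', hgΩ, hMM, hgM, hcase⟩ :=
      hSpin hodd (Cfsg.quadFormMinus (d - 1) F a b) hnd h hh u u' hu hu' hns'
    refine ⟨g, hgΩ, ?_⟩
    rw [key x g, conj_eq g h M M' hMM hgM α α' e3]
    rcases hcase with ⟨rfl, rfl⟩ | ⟨rfl, rfl⟩ | ⟨rfl, rfl⟩ | ⟨rfl, rfl⟩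
    · rw [Matrix.one_mul, Matrix.mul_one]; exact pm1
    · exact pm2
    · exact pm3
    · exact pm4

end Cfsg.Agent.Lib.Helper74.OFM
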