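import Mathlib
import Cfsg.Agent.Lib.Helper74.OFM.Defs
import Cfsg.Agent.Lib.Helper74.OFM.Norm

/-!
# OFM package [STRUCT] (S5978; generic port of helper26's OFX STRUCT): a self-adjoint field subalgebra of degree 2 is `F + F α`
with `α` self-adjoint and `α² = a` a non-square.
-/

set_option autoImplicit false

universe u

namespace Cfsg.Agent.Lib.Helper74.OFM

open Matrix

theorem pkgStruct : PkgStruct.{u} := by
  intro F _ _ hodd ι _ _ Q K hKf hKs
  have h2 : (2 : F) ≠ 0 := two_ne_zero_of_odd_card_ofm hodd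
  -- a non-scalar element of K
  have hex : ∃ k ∈ K, ∀ c : F, k ≠ c • (1 : Matrix ι ι F) := by
    by_contra hcon
    push Not at hcon
    have hle : Module.finrank F K ≤ 1 := by
      apply finrank_le_one (1 : K)
      intro w
      obtain ⟨c, hc⟩ := hcon w.1 w.2
      refine ⟨c, ?_⟩
      apply Subtype.ext
      rw [hc]
      rfl
    rw [hKf.finrank_eq] at hle
    omega
  obtain ⟨k, hkK, hk⟩ := hex
  have h1ne : (1 : Matrix ι ι F) ≠ 0 := by
    intro h10
    apply hk 0
    rw [zero_smul, ← mul_one k, h10, mul_zero]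
  -- 1, k is a basis of K
  have hli : LinearIndependent F ![(1 : K), (⟨k, hkK⟩ : K)] := by
    rw [LinearIndependent.pair_iff]
    intro s t hst
    have hst' : s • (1 : Matrix ι ι F) + t • k = 0 := by
      have := congrArg (Subtype.val) hst
      simpa using this
    have ht : t = 0 := by
      by_contra htne
      apply hk (-s / t)
      have h3 : t • k = (-s) • (1 : Matrix ι ι F) := by
        rw [neg_smul]
        exact eq_neg_of_add_eq_zero_right hst'
      calc k = t⁻¹ • (t • k) := by rw [smul_smul, inv_mul_cancel₀ htne, one_smul]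
        _ = _ := by rw [h3, smul_smul]; congr 1; field_simp
    subst ht
    rw [zero_smul, add_zero] at hst'
    refine ⟨?_, rfl⟩
    by_contra hs
    apply h1ne
    calc (1 : Matrix ι ι F) = s⁻¹ • (s • (1 : Matrix ι ι F)) := by
          rw [smul_smul, inv_mul_cancel₀ hs, one_smul]
      _ = 0 := by rw [hst', smul_zero]
  have hcard : Fintype.card (Fin 2) = Module.finrank F K := by
    rw [hKf.finrank_eq]; rfl
  obtain ⟨b, hb⟩ : ∃ b : Module.Basis (Fin 2) F K, ⇑b = ![(1 : K), (⟨k, hkK⟩ : K)] :=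
    ⟨_, coe_basisOfLinearIndependentOfCardEqFinrank hli hcard⟩
  have hspan : ∀ k' ∈ K, ∃ x y : F, k' = x • (1 : Matrix ι ι F) + y • k := by
    intro k' hk'
    refine ⟨b.repr ⟨k', hk'⟩ 0, b.repr ⟨k', hk'⟩ 1, ?_⟩
    have h3 := b.sum_repr ⟨k', hk'⟩
    rw [Fin.sum_univ_two, hb] at h3
    have h4 := congrArg Subtype.val h3
    simpa using h4.symm
  -- k * k = s + t k
  obtain ⟨s, t, hkk⟩ := hspan (k * k) (K.mul_mem hkK hkK)
  have h4 : (4 : F) ≠ 0 := by
    have : (4 : F) = 2 * 2 := by norm_num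
    rw [this]
    exact mul_ne_zero h2 h2
  obtain ⟨α, hαdef⟩ : ∃ α : Matrix ι ι F,
      α = k - (t / 2) • (1 : Matrix ι ι F) := ⟨_, rfl⟩
  obtain ⟨a, hadef⟩ : ∃ a : F, a = s + t * t / 4 := ⟨_, rfl⟩
  have hαK : α ∈ K := by
    rw [hαdef]
    exact K.sub_mem hkK (K.smul_mem K.one_mem _)
  have hαα : α * α = a • (1 : Matrix ι ι F) := by
    rw [hαdef, sub_mul, mul_sub, mul_sub, Matrix.smul_mul, Matrix.mul_smul, Matrix.smul_mul,
      Matrix.mul_smul, Matrix.one_mul, Matrix.mul_one, Matrix.one_mul, hkk, smul_smul, hadef]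
    have e1 : t • k = (t / 2) • k + (t / 2) • k := by
      rw [← add_smul]; congr 1; field_simp; ring
    have e2 : (s + t * t / 4) • (1 : Matrix ι ι F)
        = s • (1 : Matrix ι ι F) + (t / 2 * (t / 2)) • 1 := by
      rw [← add_smul]; congr 1; field_simp; ring
    rw [e2, e1]
    abel
  have hαns : ∀ c : F, α ≠ c • (1 : Matrix ι ι F) := by
    intro c hc
    apply hk (c + t / 2)
    rw [add_smul, ← hc, hαdef, sub_add_cancel]
  refine ⟨a, α, ?_, ⟨hαα, fun u v => hKs α hαK u v⟩, ?_⟩
  · -- a is not a square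
    rintro ⟨c, hc⟩
    have hm : α - c • (1 : Matrix ι ι F) ∈ K := K.sub_mem hαK (K.smul_mem K.one_mem _)
    have hp : α + c • (1 : Matrix ι ι F) ∈ K := K.add_mem hαK (K.smul_mem K.one_mem _)
    have hmne : α - c • (1 : Matrix ι ι F) ≠ 0 := by
      intro h
      exact hαns c (sub_eq_zero.1 h)
    obtain ⟨y, hyK, hy⟩ := hKf.inv _ hm hmne
    have hprod : (α + c • (1 : Matrix ι ι F)) * (α - c • (1 : Matrix ι ι F)) = 0 := by
      rw [add_mul, mul_sub, mul_sub, hαα, Matrix.smul_mul, Matrix.mul_smul, Matrix.smul_mul,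
        Matrix.mul_smul, Matrix.one_mul, Matrix.mul_one, Matrix.one_mul, smul_smul, hc]
      abel
    have hz : α + c • (1 : Matrix ι ι F) = 0 := by
      calc α + c • (1 : Matrix ι ι F)
          = (α + c • (1 : Matrix ι ι F)) * ((α - c • (1 : Matrix ι ι F)) * y) := by
            rw [hy, mul_one]
        _ = 0 := by rw [← mul_assoc, hprod, zero_mul]
    apply hαns (-c)
    rw [neg_smul]
    exact eq_neg_of_add_eq_zero_left hz
  · intro k'
    constructor
    · intro hk'
      obtain ⟨x, y, hxy⟩ := hspan k' hk'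
      refine ⟨x + y * (t / 2), y, ?_⟩
      rw [hxy, hαdef, smul_sub, smul_smul, add_smul]
      abel
    · rintro ⟨x, y, rfl⟩
      exact K.add_mem (K.smul_mem K.one_mem _) (K.smul_mem hαK _)

end Cfsg.Agent.Lib.Helper74.OFM
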