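import Cfsg.Agent.Lib.Helper60.OFM.Syl4Asm
import Cfsg.Agent.Lib.Helper97.OHyp.Split
import Cfsg.Agent.Lib.Helper87.OHyp.Div
import Cfsg.Agent.Lib.Helper87.OHyp.Perp
import Cfsg.Agent.Lib.Helper27.OHyp.BlkFinal
import Cfsg.Agent.Lib.Helper1.OHyp.Sum
import Cfsg.Agent.Lib.Helper25.OHyp.Frob
import Cfsg.Agent.Lib.Helper17.OFM.Syl4Ex2
import Cfsg.Agent.Lib.Helper82.OFM.Syl4Glue
import Cfsg.Agent.Lib.Helper82.OFM.Syl4ExK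
import Cfsg.Agent.Lib.Helper47.OFM.Syl4CentW
import Cfsg.Agent.Lib.Helper47.OFM.Syl4Restr
import Cfsg.Agent.Lib.Helper75.OFM.Syl4PolyA
import Cfsg.Agent.Lib.Helper75.OFM.Syl4ZPow
import Cfsg.Agent.Lib.Helper92.OFM.Syl4PInv
import Cfsg.Agent.Lib.Helper85.OFM.Syl4Sqrt

/-!
# S5978 (team project OFM): package [SYL4], assembled from the leaves of helper60's cut
-/

set_option autoImplicit false

namespace Cfsg.Agent.Lib.Helper74.OFM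

universe u

/-- **[SYL4]** -/
theorem pkgSyl4_final : PkgSyl4.{u} :=
  Cfsg.Agent.Lib.Helper60.OFM.pkgSyl4_of Cfsg.Agent.Lib.Helper97.OHyp.pkgSplit
    (Cfsg.Agent.Lib.Helper87.OHyp.pkgDiv_of Cfsg.Agent.Lib.Helper27.OHyp.pkgBlk
      Cfsg.Agent.Lib.Helper87.OHyp.pkgPerp Cfsg.Agent.Lib.Helper1.OHyp.pkgSum)
    Cfsg.Agent.Lib.Helper25.OHyp.pkgFrob
    (Cfsg.Agent.Lib.Helper82.OFM.pkgExK Cfsg.Agent.Lib.Helper17.OFM.pkgEx2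
      Cfsg.Agent.Lib.Helper82.OFM.pkgGlue)
    Cfsg.Agent.Lib.Helper82.OFM.pkgGlue Cfsg.Agent.Lib.Helper47.OFM.pkgCentW
    Cfsg.Agent.Lib.Helper47.OFM.pkgRestr Cfsg.Agent.Lib.Helper75.OFM.pkgPolyA
    Cfsg.Agent.Lib.Helper75.OFM.pkgPolyB Cfsg.Agent.Lib.Helper92.OFM.pkgPInv
    Cfsg.Agent.Lib.Helper85.OFM.pkgSqrtPhi Cfsg.Agent.Lib.Helper85.OFM.pkgZSq
    Cfsg.Agent.Lib.Helper75.OFM.pkgZPow Cfsg.Agent.Lib.Helper75.OFM.pkgNdTop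

end Cfsg.Agent.Lib.Helper74.OFM
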